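import Cfsg.Agent.Lib.Helper97.C3S.Defs

/-!
# Ladder C3S, rung MAXINT2 (from the step property): two members of the orbit of `K`-points meeting in a hyperplane
-/

set_option autoImplicit false

namespace Cfsg.Agent.Lib.Helper97.C3S

open Module Cfsg.Agent.Lib.Helper97.C3

variable {F K V : Type*} [Field F] [Field K] [Algebra F K] [AddCommGroup V]
  [Module F V] [Module K V] [IsScalarTower F K V]

private lemma maxint2_aux [FiniteDimensional F K] [FiniteDimensional K V]
    (X : Subgroup (V ≃ₗ[F] V)) (hstep : StepProp K X) (k : ℕ) :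
    ∀ (g : V ≃ₗ[F] V) (x x₀ : V), g ∈ X → x ≠ 0 → x₀ ≠ 0 →
      kpt F K x ≠ (kpt F K x₀).map g.toLinearMap →
      kpt F K x ⊓ (kpt F K x₀).map g.toLinearMap ≠ ⊥ →
      finrank F K - finrank F ↥(kpt F K x ⊓ (kpt F K x₀).map g.toLinearMap) = k →
      ∃ (x : V) (g' : V ≃ₗ[F] V) (x₀' : V), Close K X x g' x₀' := by
  haveI : FiniteDimensional F V := Module.Finite.trans K V
  induction k using Nat.strong_induction_on with
  | _ k ih =>
    intro g x x₀ hg hx hx₀ hne hbot hk
    set P' := (kpt F K x₀).map g.toLinearMap with hP'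
    have hfP : finrank F ↥(kpt F K x) = finrank F K := finrank_kpt hx
    have hfP' : finrank F ↥P' = finrank F K := by
      rw [hP', LinearEquiv.finrank_map_eq, finrank_kpt hx₀]
    have hnle : ¬ kpt F K x ≤ P' := by
      intro hle
      exact hne (Submodule.eq_of_le_of_finrank_eq hle (by rw [hfP, hfP']))
    have hlt : finrank F ↥(kpt F K x ⊓ P') < finrank F K := by
      rw [← hfP]
      apply Submodule.finrank_lt_finrank_of_lt
      refine lt_of_le_of_ne inf_le_left fun h => hnle ?_
      rw [← h]; exact inf_le_right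
    by_cases hd : finrank F ↥(kpt F K x ⊓ P') + 1 = finrank F K
    · exact ⟨x, g, x₀, hx, hx₀, hg, hd⟩
    · obtain ⟨t, htX, h1, h2⟩ := hstep x P' hx hbot hnle (by rw [hfP']; omega)
      have hmap : ((kpt F K x₀).map (g⁻¹ * t * g).toLinearMap).map g.toLinearMap
          = P'.map t.toLinearMap := by
        rw [hP', ← Submodule.map_comp, ← Submodule.map_comp]
        congr 1
        ext v
        simp [mul_assoc]
      have hinf : (kpt F K x₀ ⊓ (kpt F K x₀).map (g⁻¹ * t * g).toLinearMap).map g.toLinearMap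
          = P' ⊓ P'.map t.toLinearMap := by
        rw [Submodule.map_inf _ g.injective, hmap]
      have hfin : finrank F ↥(kpt F K x₀ ⊓ (kpt F K x₀).map (g⁻¹ * t * g).toLinearMap)
          = finrank F ↥(P'.map t.toLinearMap ⊓ P') := by
        rw [inf_comm (P'.map t.toLinearMap), ← hinf, LinearEquiv.finrank_map_eq]
      have hgt := Submodule.finrank_lt_finrank_of_lt h2
      refine ih (finrank F K - finrank F ↥(P'.map t.toLinearMap ⊓ P')) (by omega)
        (g⁻¹ * t * g) x₀ x₀ (X.mul_mem (X.mul_mem (X.inv_mem hg) htX) hg) hx₀ hx₀ ?_ ?_ (by rw [hfin])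
      · intro heq
        apply h1
        rw [← hmap, ← heq]
      · intro hb
        rw [hb, finrank_bot] at hfin
        omega

theorem exists_close_of_step [FiniteDimensional F K] [FiniteDimensional K V]
    (X : Subgroup (V ≃ₗ[F] V)) (hstep : StepProp K X) (g : V ≃ₗ[F] V) (hg : g ∈ X) (x₀ : V)
    (hx₀ : ∀ y : V, (kpt F K x₀).map g.toLinearMap ≠ kpt F K y) :
    ∃ (x : V) (g' : V ≃ₗ[F] V) (x₀' : V), Close K X x g' x₀' := by
  have h0 : x₀ ≠ 0 := by
    rintro rfl
    apply hx₀ 0
    have : kpt F K (0 : V) = ⊥ := by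
      rw [eq_bot_iff]
      intro y hy
      obtain ⟨a, rfl⟩ := mem_kpt.1 hy
      simp
    rw [this, Submodule.map_bot]
  have hg0 : g x₀ ≠ 0 := fun h => h0 (by simpa using h)
  refine maxint2_aux X hstep _ g (g x₀) x₀ hg hg0 h0 (fun h => hx₀ _ h.symm) ?_ rfl
  intro hb
  have : g x₀ ∈ kpt F K (g x₀) ⊓ (kpt F K x₀).map g.toLinearMap :=
    ⟨self_mem_kpt _, ⟨x₀, self_mem_kpt _, rfl⟩⟩
  rw [hb, Submodule.mem_bot] at this
  exact hg0 this

end Cfsg.Agent.Lib.Helper97.C3S
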