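import Cfsg.Agent.Lib.Helper97.C3S.Defs

/-!
# Ladder C3S, rung S22A: identities between symplectic transvections over the field of order two
-/

set_option autoImplicit false

namespace Cfsg.Agent.Lib.Helper97.C3S

open Module Cfsg.Agent.Lib.Helper95 Cfsg.Agent.Lib.Helper97.C3

variable {F K V : Type*} [Field F] [Field K] [Algebra F K] [AddCommGroup V]
  [Module F V] [Module K V] [IsScalarTower F K V]

theorem kstv_eq_mul (B : LinearMap.BilinForm K V) (hB : B.IsAlt) (κ₀ : K →ₗ[F] F)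
    (β : LinearMap.BilinForm F V) (hβa : β.IsAlt) (hβ : ∀ u v, β u v = κ₀ (B u v))
    (w : K) (hw : w * w = w + 1)
    (hspan : ∀ z : K, ∃ c d : F, z = algebraMap F K c + algebraMap F K d * w) (a : K) (x : V) :
    kstv F B hB x (a * a * (algebraMap F K (κ₀ 1) + algebraMap F K (κ₀ w) * w))
      = stv β hβa (a • x) 1 * stv β hβa ((w * a) • x) 1 := by
  ext v
  rw [kstv_apply, LinearEquiv.mul_apply, stv_apply, stv_apply]
  have h0 : β ((w * a) • x) (a • x) = 0 := by
    rw [hβ]; simp [hB x]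
  have h00 : β (v + (1 * β v ((w * a) • x)) • (w * a) • x) (a • x) = β v (a • x) := by
    rw [map_add, LinearMap.add_apply, (β).map_smul, LinearMap.smul_apply, h0, smul_zero, add_zero]
  rw [h00, one_mul, one_mul]
  obtain ⟨c, d, hz⟩ := hspan (a * B v x)
  have h1 : β v (a • x) = c * κ₀ 1 + d * κ₀ w := by
    rw [hβ, map_smul, smul_eq_mul, hz, map_add]
    have e1 : algebraMap F K c = c • (1 : K) := by rw [Algebra.smul_def, mul_one]
    have e2 : algebraMap F K d * w = d • w := by rw [Algebra.smul_def]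
    rw [e1, e2, map_smul, map_smul, smul_eq_mul, smul_eq_mul]
  have h2 : β v ((w * a) • x) = d * κ₀ 1 + (c + d) * κ₀ w := by
    rw [hβ, map_smul, smul_eq_mul]
    have e0 : w * a * B v x = d • (1 : K) + (c + d) • w := by
      rw [mul_assoc, hz, Algebra.smul_def, Algebra.smul_def, map_add]
      linear_combination (algebraMap F K d) * hw
    rw [e0, map_add, map_smul, map_smul, smul_eq_mul, smul_eq_mul]
  rw [h1, h2, ← algebraMap_smul K (d * κ₀ 1 + (c + d) * κ₀ w), ← algebraMap_smul K (c * κ₀ 1 + d * κ₀ w),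
    smul_smul, smul_smul, add_assoc, ← add_smul]
  congr 2
  have e3 : a * a * (algebraMap F K (κ₀ 1) + algebraMap F K (κ₀ w) * w) * B v x
      = a * (algebraMap F K (κ₀ 1) + algebraMap F K (κ₀ w) * w) * (a * B v x) := by ring
  rw [e3, hz]
  simp only [map_add, map_mul]
  linear_combination (a * algebraMap F K (κ₀ w) * algebraMap F K d) * hw

private lemma s22a_sq (h2 : (2 : F) = 0) (β : LinearMap.BilinForm F V) (hβa : β.IsAlt) (u : V) :
    stv β hβa u 1 * stv β hβa u 1 = 1 := by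
  ext v
  simp only [LinearEquiv.mul_apply, stv_apply, map_add, map_smul, LinearMap.add_apply,
    LinearMap.smul_apply, hβa u, smul_zero, add_zero, one_mul, LinearEquiv.coe_one, id_eq]
  linear_combination (norm := module) h2 • (β v u • u)

private lemma s22a_inv (h2 : (2 : F) = 0) (β : LinearMap.BilinForm F V) (hβa : β.IsAlt) (u : V) :
    (stv β hβa u 1)⁻¹ = stv β hβa u 1 :=
  inv_eq_of_mul_eq_one_left (s22a_sq h2 β hβa u)

theorem rel_refl (h2 : (2 : F) = 0) (β : LinearMap.BilinForm F V) (hβa : β.IsAlt)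
    (X : Subgroup (V ≃ₗ[F] V)) (u : V) : Rel β hβa X u u := by
  unfold Rel
  rw [s22a_sq h2]
  exact one_mem X

theorem rel_symm (h2 : (2 : F) = 0) (β : LinearMap.BilinForm F V) (hβa : β.IsAlt)
    (X : Subgroup (V ≃ₗ[F] V)) {u v : V} (h : Rel β hβa X u v) : Rel β hβa X v u := by
  unfold Rel at h ⊢
  have h1 := inv_mem h
  rwa [mul_inv_rev, s22a_inv h2, s22a_inv h2] at h1

theorem rel_trans (h2 : (2 : F) = 0) (β : LinearMap.BilinForm F V) (hβa : β.IsAlt)
    (X : Subgroup (V ≃ₗ[F] V)) {u v w : V} (h : Rel β hβa X u v) (h' : Rel β hβa X v w) :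
    Rel β hβa X u w := by
  unfold Rel at h h' ⊢
  have h1 := mul_mem h h'
  have e : stv β hβa u 1 * stv β hβa v 1 * (stv β hβa v 1 * stv β hβa w 1)
      = stv β hβa u 1 * stv β hβa w 1 := by
    rw [mul_assoc, ← mul_assoc (stv β hβa v 1), s22a_sq h2, one_mul]
  rwa [e] at h1

theorem rel_conj (β : LinearMap.BilinForm F V) (hβa : β.IsAlt)
    (X : Subgroup (V ≃ₗ[F] V)) (hXle : X ≤ isoGrp β) {g : V ≃ₗ[F] V} (hg : g ∈ X) {u v : V}
    (h : Rel β hβa X u v) : Rel β hβa X (g u) (g v) := by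
  unfold Rel at h ⊢
  have h1 := mul_mem (mul_mem hg h) (inv_mem hg)
  have e : g * (stv β hβa u 1 * stv β hβa v 1) * g⁻¹
      = stv β hβa (g u) 1 * stv β hβa (g v) 1 := by
    rw [← conj_stv hβa (hXle hg), ← conj_stv hβa (hXle hg)]
    group
  rwa [e] at h1

theorem seven (h2 : (2 : F) = 0) (β : LinearMap.BilinForm F V) (hβa : β.IsAlt) (u₁ u₂ u₃ : V)
    (h12 : β u₁ u₂ = 0) (h13 : β u₁ u₃ = 0) (h23 : β u₂ u₃ = 0) :
    stv β hβa u₁ 1 = (stv β hβa u₂ 1 * stv β hβa (u₁ + u₂) 1) *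
      (stv β hβa u₃ 1 * stv β hβa (u₁ + u₃) 1) *
      (stv β hβa (u₂ + u₃) 1 * stv β hβa (u₁ + u₂ + u₃) 1) := by
  have h21 : β u₂ u₁ = 0 := by rw [alt_swap hβa, h12, neg_zero]
  have h31 : β u₃ u₁ = 0 := by rw [alt_swap hβa, h13, neg_zero]
  have h32 : β u₃ u₂ = 0 := by rw [alt_swap hβa, h23, neg_zero]
  ext v
  simp only [LinearEquiv.mul_apply, stv_apply, map_add, map_smul, LinearMap.add_apply,
    LinearMap.smul_apply, hβa u₁, hβa u₂, hβa u₃, h12, h13, h23, h21, h31, h32, smul_zero,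
    add_zero, zero_add, one_mul]
  linear_combination (norm := module) (-h2) • ((β v u₁ + β v u₂ + β v u₃) • u₁
    + (β v u₁ + 2 * β v u₂ + β v u₃) • u₂ + (β v u₁ + β v u₂ + 2 * β v u₃) • u₃)

end Cfsg.Agent.Lib.Helper97.C3S
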