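import Cfsg.Agent.Lib.Helper97.C3S.STEP2

/-!
# Ladder C3S, rung SSTEP: the step property for overgroups of `Sp_K`
-/

set_option autoImplicit false

namespace Cfsg.Agent.Lib.Helper97.C3S

open Module Cfsg.Agent.Lib.Helper95 Cfsg.Agent.Lib.Helper97.C3

variable {F K V : Type*} [Field F] [Field K] [Algebra F K] [AddCommGroup V]
  [Module F V] [Module K V] [IsScalarTower F K V]

/-- Every `K`-functional is `B · y`. -/
lemma exists_repr [FiniteDimensional K V] (B : LinearMap.BilinForm K V) (hB : B.IsAlt)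
    (hnd : B.Nondegenerate) (f : V →ₗ[K] K) : ∃ y : V, ∀ v, f v = B v y := by
  refine ⟨-(B.toDual hnd).symm f, fun v => ?_⟩
  have h1 : B ((B.toDual hnd).symm f) v = f v := by
    rw [← LinearMap.BilinForm.toDual_def hnd, LinearEquiv.apply_symm_apply]
  rw [map_neg, ← h1, alt_swap hB]

/-- `y₀` perpendicular to `x` with `B w y₀ = 1`, for `w ∉ K x`. -/
lemma exists_perp_one [FiniteDimensional K V] (B : LinearMap.BilinForm K V) (hB : B.IsAlt)
    (hnd : B.Nondegenerate) {x w : V} (hw : w ∉ kpt F K x) : ∃ y : V, B x y = 0 ∧ B w y = 1 := by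
  obtain ⟨f, hf1, hf2⟩ := exists_fun_one' hw
  obtain ⟨y, hy⟩ := exists_repr B hB hnd f
  exact ⟨y, by rw [← hy, hf1], by rw [← hy, hf2]⟩

theorem stepProp_of_bigS [FiniteDimensional F K] [FiniteDimensional K V] (hr : (finrank F K).Prime)
    (B : LinearMap.BilinForm K V) (hB : B.IsAlt) (hnd : B.Nondegenerate)
    (X : Subgroup (V ≃ₗ[F] V)) (hX : BigS B X) : StepProp K X := by
  haveI : FiniteDimensional F V := Module.Finite.trans K V
  intro x P' hx hD hP h2
  by_cases hA : ∃ w ∈ P', B w x ≠ 0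
  · obtain ⟨w, hw, hwx⟩ := hA
    obtain ⟨l, hl, h3, h4⟩ := step2 hr x P' hD hP h2 ((B w x)⁻¹ • B.flip x) (by simp [hB x]) w hw
      (by simp [hwx])
    have heq : kstv F B hB x (l * (B w x)⁻¹) = ktv F (l • ((B w x)⁻¹ • B.flip x)) x hl := by
      ext v
      simp [mul_assoc]
    refine ⟨kstv F B hB x (l * (B w x)⁻¹), kstv_mem hB hX _ _, ?_, ?_⟩
    · rw [heq]; exact h3
    · rw [heq]; exact h4
  · push Not at hA
    obtain ⟨w, hwP, hwD⟩ : ∃ w ∈ P', w ∉ kpt F K x ⊓ P' := by
      by_contra hcon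
      push Not at hcon
      have : P' ≤ kpt F K x ⊓ P' := hcon
      have := Submodule.finrank_mono this
      omega
    have hwx : w ∉ kpt F K x := fun h => hwD ⟨h, hwP⟩
    obtain ⟨y0, hy1, hy2⟩ := exists_perp_one B hB hnd hwx
    obtain ⟨l, hl, h3, h4⟩ := step2 hr x P' hD hP h2 (B.flip y0) (by simpa using hy1) w hwP
      (by simpa using hy2)
    have hxy : B x (l • y0) = 0 := by rw [map_smul, hy1, smul_zero]
    have hmap : P'.map (krho F B hB x (l • y0)).toLinearMap
        = P'.map (ktv F (l • B.flip y0) x hl).toLinearMap := by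
      have hag : ∀ v ∈ P', krho F B hB x (l • y0) v = ktv F (l • B.flip y0) x hl v := by
        intro v hv
        rw [krho_apply B hB hxy, hA v hv, zero_smul, add_zero, ktv_apply]
        simp
      ext z
      constructor
      · rintro ⟨v, hv, rfl⟩
        exact ⟨v, hv, (hag v hv).symm⟩
      · rintro ⟨v, hv, rfl⟩
        exact ⟨v, hv, hag v hv⟩
    refine ⟨krho F B hB x (l • y0), krho_mem hB hX _ _, ?_, ?_⟩
    · rw [hmap]; exact h3
    · rw [hmap]; exact h4

end Cfsg.Agent.Lib.Helper97.C3S
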