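import Cfsg.Agent.Lib.Helper97.C3S.S22A
import Cfsg.Agent.Lib.Helper97.C3S.SSTEP

/-!
# Ladder C3S, rung S22B: the case `r = q = 2`
-/

set_option autoImplicit false

namespace Cfsg.Agent.Lib.Helper97.C3S

open Module Cfsg.Agent.Lib.Helper95 Cfsg.Agent.Lib.Helper97.C3

variable {F K V : Type*} [Field F] [Field K] [Algebra F K] [AddCommGroup V]
  [Module F V] [Module K V] [IsScalarTower F K V]

private lemma S22B_F [Fintype F] (hq : Fintype.card F = 2) : ∀ c : F, c = 0 ∨ c = 1 := by
  intro c
  have h := FiniteField.pow_card c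
  rw [hq] at h
  have h2 : c * (c - 1) = 0 := by linear_combination h
  rcases mul_eq_zero.1 h2 with h3 | h3
  · exact Or.inl h3
  · exact Or.inr (sub_eq_zero.1 h3)

private lemma S22B_twoF [Fintype F] (hq : Fintype.card F = 2) : (2 : F) = 0 := by
  rcases S22B_F hq 2 with h | h
  · exact h
  · exfalso
    have : (1 : F) = 0 := by linear_combination h
    exact one_ne_zero this

private lemma S22B_twoK [Fintype F] (hq : Fintype.card F = 2) : (2 : K) = 0 := by
  have := congrArg (algebraMap F K) (S22B_twoF hq)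
  rwa [map_ofNat, map_zero] at this

private lemma S22B_K [Fintype F] [FiniteDimensional F K] (hr : finrank F K = 2)
    (hq : Fintype.card F = 2) :
    ∃ w : K, w * w = w + 1 ∧ ∀ l : K, l = 0 ∨ l = 1 ∨ l = w ∨ l = w + 1 := by
  classical
  have h2 : (2 : K) = 0 := S22B_twoK (F := F) hq
  have : Finite K := Module.finite_of_finite F
  have := Fintype.ofFinite K
  have hcK : Fintype.card K = 4 := by
    rw [Module.card_eq_pow_finrank (K := F) (V := K), hq, hr]; norm_num
  have hpow : ∀ l : K, l ≠ 0 → l ≠ 1 → l * l = l + 1 := by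
    intro l h0 h1
    have h := FiniteField.pow_card l
    rw [hcK] at h
    have h3 : l * ((l - 1) * (l * l + l + 1)) = 0 := by linear_combination h
    rcases mul_eq_zero.1 h3 with h4 | h4
    · exact absurd h4 h0
    · rcases mul_eq_zero.1 h4 with h5 | h5
      · exact absurd (sub_eq_zero.1 h5) h1
      · linear_combination h5 - (l + 1) * h2
  obtain ⟨w, hw0, hw1⟩ : ∃ w : K, w ≠ 0 ∧ w ≠ 1 := by
    by_contra hcon
    push Not at hcon
    have : Fintype.card K ≤ 2 := by
      have hsub : (Finset.univ : Finset K) ⊆ {0, 1} := by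
        intro l _
        by_cases hl : l = 0
        · simp [hl]
        · simp [hcon l hl]
      calc Fintype.card K = (Finset.univ : Finset K).card := rfl
        _ ≤ ({0, 1} : Finset K).card := Finset.card_le_card hsub
        _ ≤ 2 := Finset.card_le_two
    omega
  refine ⟨w, hpow w hw0 hw1, fun l => ?_⟩
  by_cases h0 : l = 0
  · exact Or.inl h0
  by_cases h1 : l = 1
  · exact Or.inr (Or.inl h1)
  have hl := hpow l h0 h1
  have hw := hpow w hw0 hw1
  have h3 : (l - w) * (l - (w + 1)) = 0 := by linear_combination hl + hw + (1 - l * w + w) * h2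
  rcases mul_eq_zero.1 h3 with h4 | h4
  · exact Or.inr (Or.inr (Or.inl (sub_eq_zero.1 h4)))
  · exact Or.inr (Or.inr (Or.inr (sub_eq_zero.1 h4)))

theorem hasSTV_two_two [Fintype F] [FiniteDimensional F K] [FiniteDimensional K V]
    (hq : Fintype.card F = 2) (hr : finrank F K = 2) (hm : 4 ≤ finrank K V)
    (B : LinearMap.BilinForm K V) (hB : B.IsAlt) (hnd : B.Nondegenerate) (κ₀ : K →ₗ[F] F)
    (hκ : κ₀ ≠ 0) (β : LinearMap.BilinForm F V) (hβa : β.IsAlt) (hβ : ∀ u v, β u v = κ₀ (B u v))
    (X : Subgroup (V ≃ₗ[F] V)) (hX : BigS B X) (hXle : X ≤ isoGrp β)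
    {x x₀ : V} {g : V ≃ₗ[F] V} {ω : K →ₗ[F] F} (h : CloseW K X x g x₀ ω) : HasSTV β hβa X := by
  have : FiniteDimensional F V := Module.Finite.trans K V
  obtain ⟨hx, hx₀, hgX, hω, hiff⟩ := h
  have h2F : (2 : F) = 0 := S22B_twoF hq
  obtain ⟨w, hw, hK⟩ := S22B_K (K := K) hr hq
  have hw0 : w ≠ 0 := by
    rintro rfl
    simp at hw
  have hw1 : 1 + w ≠ 0 := by
    intro h1
    rw [add_comm w 1, h1] at hw
    exact hw0 (mul_self_eq_zero.1 hw)
  have hspan : ∀ z : K, ∃ c d : F, z = algebraMap F K c + algebraMap F K d * w := by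
    intro z
    rcases hK z with rfl | rfl | rfl | rfl
    · exact ⟨0, 0, by simp⟩
    · exact ⟨1, 0, by simp⟩
    · exact ⟨0, 1, by simp⟩
    · exact ⟨1, 1, by simp [add_comm]⟩
  have rrefl : ∀ u, Rel β hβa X u u := rel_refl h2F β hβa X
  have rsymm : ∀ {u v : V}, Rel β hβa X u v → Rel β hβa X v u :=
    fun h => rel_symm h2F β hβa X h
  have rtrans : ∀ {u v z : V}, Rel β hβa X u v → Rel β hβa X v z → Rel β hβa X u z :=
    fun h h' => rel_trans h2F β hβa X h h'
  have rconj : ∀ {e : V ≃ₗ[F] V}, e ∈ X → ∀ {u v : V}, Rel β hβa X u v →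
      Rel β hβa X (e u) (e v) := fun he _ _ h => rel_conj β hβa X hXle he h
  -- (i)
  have hi0 : ∀ (z : V) (a : K), Rel β hβa X (a • z) ((w * a) • z) := by
    intro z a
    unfold Rel
    rw [← kstv_eq_mul B hB κ₀ β hβa hβ w hw hspan a z]
    exact kstv_mem hB hX _ _
  have hi1 : ∀ (z : V) (a : K), a ≠ 0 → Rel β hβa X z (a • z) := by
    intro z a ha
    have e1 : Rel β hβa X z (w • z) := by
      have := hi0 z 1
      rwa [one_smul, mul_one] at this
    rcases hK a with rfl | rfl | rfl | rfl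
    · exact absurd rfl ha
    · rw [one_smul]; exact rrefl z
    · exact e1
    · rw [← hw]
      exact rtrans e1 (hi0 z w)
  have hi : ∀ (z : V) (a b : K), a ≠ 0 → b ≠ 0 → Rel β hβa X (a • z) (b • z) :=
    fun z a b ha hb => rtrans (rsymm (hi1 z a ha)) (hi1 z b hb)
  -- (ii)
  have hrank : finrank F (LinearMap.ker ω) + finrank F (LinearMap.range ω) = finrank F K := by
    rw [add_comm]; exact LinearMap.finrank_range_add_finrank_ker ω
  have hrange : finrank F (LinearMap.range ω) ≤ 1 := by
    have := Submodule.finrank_le (LinearMap.range ω)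
    simpa using this
  have hkerbot : LinearMap.ker ω ≠ ⊥ := by
    intro h
    rw [h, finrank_bot] at hrank
    omega
  obtain ⟨a0, ha1, ha0⟩ := (Submodule.ne_bot_iff _).1 hkerbot
  have hωa0 : ω a0 = 0 := LinearMap.mem_ker.1 ha1
  have hdQ : a0 • x ∈ (kpt F K x₀).map g.toLinearMap := (hiff a0).1 hωa0
  obtain ⟨l1, hl1⟩ : ∃ l, ω l ≠ 0 := by
    by_contra hcon
    push Not at hcon
    exact hω (LinearMap.ext hcon)
  have hl1Q : l1 • x ∉ (kpt F K x₀).map g.toLinearMap := fun h => hl1 ((hiff l1).2 h)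
  obtain ⟨w1, hw1Q, hw1x⟩ : ∃ w1 ∈ (kpt F K x₀).map g.toLinearMap, w1 ∉ kpt F K x := by
    by_contra hcon
    push Not at hcon
    have hle : (kpt F K x₀).map g.toLinearMap ≤ kpt F K x := hcon
    have hfr : finrank F ↥((kpt F K x₀).map g.toLinearMap) = finrank F ↥(kpt F K x) := by
      rw [LinearEquiv.finrank_map_eq, finrank_kpt hx₀, finrank_kpt hx]
    have := Submodule.eq_of_le_of_finrank_eq hle hfr
    exact hl1Q (this ▸ smul_mem_kpt l1 x)
  obtain ⟨y1, hy1, hgy1⟩ := Submodule.mem_map.1 hdQ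
  obtain ⟨k1, rfl⟩ := mem_kpt.1 hy1
  obtain ⟨y2, hy2, hgy2⟩ := Submodule.mem_map.1 hw1Q
  obtain ⟨k2, rfl⟩ := mem_kpt.1 hy2
  have hgy1' : g (k1 • x₀) = a0 • x := hgy1
  have hgy2' : g (k2 • x₀) = w1 := hgy2
  set d := a0 • x with hd
  have hd0 : d ≠ 0 := smul_ne_zero ha0 hx
  have hk1 : k1 ≠ 0 := by
    rintro rfl
    rw [zero_smul, map_zero] at hgy1'
    exact hd0 hgy1'.symm
  have hk2 : k2 ≠ 0 := by
    rintro rfl
    rw [zero_smul, map_zero] at hgy2'
    apply hw1x
    rw [← hgy2']
    exact (kpt F K x).zero_mem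
  have hdw : Rel β hβa X d w1 := by
    have := rconj hgX (hi x₀ k1 k2 hk1 hk2)
    rwa [hgy1', hgy2'] at this
  have hkd : kpt F K d = kpt F K x := kpt_eq_of_mem hd0 (smul_mem_kpt a0 x)
  have hw1d : w1 ∉ kpt F K d := by rw [hkd]; exact hw1x
  clear_value d
  -- (iii)
  have claim : ∃ y : V, B d y = 0 ∧ ∀ k : K, Rel β hβa X d (y + k • d) := by
    by_cases hb : B d w1 = 0
    · refine ⟨w1, hb, fun k => ?_⟩
      obtain ⟨y0, hy0, hy1⟩ := exists_perp_one B hB hnd hw1d
      have hdy : B d (k • y0) = 0 := by rw [map_smul, hy0, smul_zero]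
      have hmem := krho_mem (F := F) hB hX d (k • y0)
      have h1 : krho F B hB d (k • y0) d = d := by
        rw [krho_apply B hB hdy, hB d, hdy]; simp
      have h2 : krho F B hB d (k • y0) w1 = w1 + k • d := by
        have hwd : B w1 d = 0 := by rw [alt_swap hB, hb, neg_zero]
        rw [krho_apply B hB hdy, hwd, map_smul, hy1]; simp
      have := rconj hmem hdw
      rwa [h1, h2] at this
    · set b1 := B d w1 with hb1
      have hU : NondegOn B ⊤ := by
        intro x _ hx
        by_contra hcon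
        push Not at hcon
        exact hx (hnd.1 x fun y => hcon y trivial)
      have star : ∀ u u' : V, B u u' = b1 → Rel β hβa X u u' := by
        intro u u' huu
        obtain ⟨e, he, he1, he2⟩ := transPair hB hU (Submodule.mem_top (x := u))
          (Submodule.mem_top (x := b1⁻¹ • u')) (Submodule.mem_top (x := d))
          (Submodule.mem_top (x := b1⁻¹ • w1))
          (by rw [map_smul, huu, smul_eq_mul, inv_mul_cancel₀ hb])
          (by rw [map_smul, ← hb1, smul_eq_mul, inv_mul_cancel₀ hb])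
        have heX : e.restrictScalars F ∈ X := hX e (tvGrp_le_isoGrp hB ⊤ he)
        have h1 : (e.restrictScalars F) d = u := he1
        have h2 : (e.restrictScalars F) w1 = u' := by
          change e w1 = u'
          have : w1 = b1 • (b1⁻¹ • w1) := by rw [smul_smul, mul_inv_cancel₀ hb, one_smul]
          rw [this, map_smul, he2, smul_smul, mul_inv_cancel₀ hb, one_smul]
        have := rconj heX hdw
        rwa [h1, h2] at this
      obtain ⟨f, v0, hfd, hfw, hfv⟩ := exists_fun_ne₂ (K := K) (by omega) d w1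
      obtain ⟨zf, hzf⟩ := exists_repr B hB hnd f
      set y' := v0 - (B d v0 * b1⁻¹) • w1 with hy'
      have hdy' : B d y' = 0 := by
        rw [hy', map_sub, map_smul, ← hb1, smul_eq_mul, mul_assoc, inv_mul_cancel₀ hb, mul_one,
          sub_self]
      have hfy' : f y' = 1 := by
        rw [hy', map_sub, map_smul, hfw, smul_zero, sub_zero, hfv]
      refine ⟨y', hdy', fun k => ?_⟩
      set y'' := y' + k • d with hy''
      have hfy'' : f y'' = 1 := by
        rw [hy'', map_add, map_smul, hfd, smul_zero, add_zero, hfy']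
      set z := w1 + (b1 - B y'' w1) • zf with hz
      have h1 : B d z = b1 := by
        rw [hz, map_add, map_smul, ← hzf, hfd, smul_zero, add_zero]
      have h2 : B y'' z = b1 := by
        rw [hz, map_add, map_smul, ← hzf, hfy'', smul_eq_mul, mul_one]; ring
      exact rtrans (star d z h1) (rsymm (star y'' z h2))
  -- (iv)
  obtain ⟨y, hdy, hy⟩ := claim
  refine ⟨d, 1, hd0, one_ne_zero, ?_⟩
  have h12 : β d (w • d) = 0 := by rw [hβ, map_smul, hB d, smul_zero, map_zero]
  have h13 : β d y = 0 := by rw [hβ, hdy, map_zero]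
  have h23 : β (w • d) y = 0 := by
    rw [hβ, map_smul, LinearMap.smul_apply, hdy, smul_zero, map_zero]
  rw [seven h2F β hβa d (w • d) y h12 h13 h23]
  refine X.mul_mem (X.mul_mem ?_ ?_) ?_
  · have : d + w • d = (1 + w) • d := by rw [add_smul, one_smul]
    rw [this]
    exact hi d w (1 + w) hw0 hw1
  · have e0 := hy 0
    have e1 := hy 1
    rw [zero_smul, add_zero] at e0
    rw [one_smul, add_comm] at e1
    exact rtrans (rsymm e0) e1
  · have e0 := hy w
    have e1 := hy (1 + w)
    have h3 : y + w • d = w • d + y := add_comm _ _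
    have h4 : y + (1 + w) • d = d + w • d + y := by rw [add_smul, one_smul, add_comm]
    rw [h3] at e0
    rw [h4] at e1
    exact rtrans (rsymm e0) e1

end Cfsg.Agent.Lib.Helper97.C3S
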