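import Cfsg.Agent.Lib.Helper97.C3S.Defs

/-!
# Ladder C3S, rung SALL: one symplectic transvection gives all of them
-/

set_option autoImplicit false

namespace Cfsg.Agent.Lib.Helper97.C3S

open Module Cfsg.Agent.Lib.Helper95 Cfsg.Agent.Lib.Helper97.C3

variable {F K V : Type*} [Field F] [Field K] [Algebra F K] [AddCommGroup V]
  [Module F V] [Module K V] [IsScalarTower F K V]

private lemma sall_mul (β : LinearMap.BilinForm F V) (hβa : β.IsAlt) (u : V) (c c' : F) :
    stv β hβa u c * stv β hβa u c' = stv β hβa u (c + c') := by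
  ext v
  simp only [LinearEquiv.mul_apply, stv_apply, map_add, map_smul, LinearMap.add_apply,
    LinearMap.smul_apply, hβa u, smul_eq_mul, mul_zero, add_zero]
  module

theorem all_stv [Fintype F] (B : LinearMap.BilinForm K V) (hB : B.IsAlt) (hnd : B.Nondegenerate)
    (κ₀ : K →ₗ[F] F) (β : LinearMap.BilinForm F V) (hβa : β.IsAlt)
    (hβ : ∀ u v, β u v = κ₀ (B u v)) (X : Subgroup (V ≃ₗ[F] V)) (hX : BigS B X)
    (h : HasSTV β hβa X) (v : V) (c : F) : stv β hβa v c ∈ X := by
  obtain ⟨u, e, hu, he, hue⟩ := h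
  have hU : NondegOn B ⊤ := by
    intro x _ hx
    by_contra hcon
    push Not at hcon
    exact hx (hnd.1 x fun y => hcon y trivial)
  have step1 : ∀ u u' : V, u ≠ 0 → u' ≠ 0 → ∀ c : F, stv β hβa u c ∈ X → stv β hβa u' c ∈ X := by
    intro u u' hu hu' c hc
    obtain ⟨h, hh, hhu⟩ := transA hB hU (Submodule.mem_top (x := u)) (Submodule.mem_top (x := u'))
      hu hu'
    have hiso : h ∈ isoGrp B := tvGrp_le_isoGrp hB ⊤ hh
    have hβiso : h.restrictScalars F ∈ isoGrp β := by
      intro x y
      rw [hβ, hβ]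
      congr 1
      exact hiso x y
    have := conj_stv hβa hβiso u c
    have h2 : (h.restrictScalars F) u = u' := hhu
    rw [h2] at this
    rw [← this]
    exact X.mul_mem (X.mul_mem (hX h hiso) hc) (X.inv_mem (hX h hiso))
  have hsq : ∀ s c : F, stv β hβa u c ∈ X → stv β hβa u (s ^ 2 * c) ∈ X := by
    intro s c hc
    by_cases hs : s = 0
    · have : stv β hβa u (s ^ 2 * c) = 1 := by
        ext x; simp [hs]
      rw [this]; exact X.one_mem
    · rw [← stv_smul]
      exact step1 u (s • u) hu (smul_ne_zero hs hu) c hc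
  have hall : ∀ z : F, stv β hβa u (z * e) ∈ X := by
    intro z
    by_cases h2 : (2 : F) = 0
    · haveI : CharP F 2 := CharTwo.of_one_ne_zero_of_two_eq_zero one_ne_zero h2
      obtain ⟨s, hs⟩ := FiniteField.isSquare_of_char_two (F := F) (by exact CharP.ringChar_of_prime_eq_zero Nat.prime_two (by exact_mod_cast h2)) z
      have := hsq s e hue
      rwa [sq, ← hs] at this
    · have h3 := hsq ((z + 1) / 2) e hue
      have h4 := hsq ((z - 1) / 2) e hue
      have h5 := X.mul_mem h3 (X.inv_mem h4)
      rw [stv_inv, sall_mul] at h5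
      have : ((z + 1) / 2) ^ 2 * e + -(((z - 1) / 2) ^ 2 * e) = z * e := by
        field_simp
        ring
      rwa [this] at h5
  have hc : stv β hβa u c ∈ X := by
    have := hall (c / e)
    rwa [div_mul_cancel₀ _ he] at this
  by_cases hv : v = 0
  · rw [hv, stv_zero_left]; exact X.one_mem
  · exact step1 u v hu hv c hc

end Cfsg.Agent.Lib.Helper97.C3S
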