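import Cfsg.Agent.Lib.Helper97.C3S.Defs

/-!
# Ladder C3S, rung SDELTA: the commutator formula
-/

set_option autoImplicit false

namespace Cfsg.Agent.Lib.Helper97.C3S

open Module Cfsg.Agent.Lib.Helper95 Cfsg.Agent.Lib.Helper97.C3

variable {F K V : Type*} [Field F] [Field K] [Algebra F K] [AddCommGroup V]
  [Module F V] [Module K V] [IsScalarTower F K V]

lemma SDELTA_uniq (κ₀ : K →ₗ[F] F) (hκ : κ₀ ≠ 0) {z z' : K}
    (h : ∀ l, κ₀ (l * z) = κ₀ (l * z')) : z = z' := by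
  by_contra hne
  apply hκ
  ext m
  have hd : z - z' ≠ 0 := sub_ne_zero.2 hne
  have h1 := h (m * (z - z')⁻¹)
  have h2 : κ₀ (m * (z - z')⁻¹ * (z - z')) = 0 := by rw [mul_sub, map_sub, h1, sub_self]
  rwa [mul_assoc, inv_mul_cancel₀ hd, mul_one] at h2

lemma SDELTA_key (B : LinearMap.BilinForm K V) (κ₀ : K →ₗ[F] F) (hκ : κ₀ ≠ 0)
    (β : LinearMap.BilinForm F V) (hβ : ∀ u v, β u v = κ₀ (B u v))
    (t : V ≃ₗ[F] V) (ht : t ∈ isoGrp β) (x : V) (a c : K)
    (htx : ∀ l : K, t (l • x) = l • x + κ₀ (c * l) • (a • x)) (v : V) :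
    B (t⁻¹ v) x = B v x + κ₀ (a * B v x) • c := by
  apply SDELTA_uniq κ₀ hκ
  intro l
  have h1 : κ₀ (l * B (t⁻¹ v) x) = β (t⁻¹ v) (l • x) := by rw [hβ, map_smul, smul_eq_mul]
  have h2 : β (t⁻¹ v) (l • x) = β v (t (l • x)) := by
    have h3 := ht (t⁻¹ v) (l • x)
    have h4 : t (t⁻¹ v) = v := t.apply_symm_apply v
    rw [h4] at h3
    exact h3.symm
  have h5 : ∀ m : K, β v (m • x) = κ₀ (m * B v x) := fun m => by
    rw [hβ, map_smul, smul_eq_mul]
  have h6 : β v (l • x + κ₀ (c * l) • (a • x)) = β v (l • x) + κ₀ (c * l) * β v (a • x) := by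
    rw [map_add, (β v).map_smul (κ₀ (c * l)) (a • x), smul_eq_mul]
  rw [h1, h2, htx, h6, h5, h5, mul_add, map_add, mul_smul_comm, map_smul, smul_eq_mul,
    mul_comm l c]
  ring

theorem delta_formula (B : LinearMap.BilinForm K V) (hB : B.IsAlt) (κ₀ : K →ₗ[F] F) (hκ : κ₀ ≠ 0)
    (β : LinearMap.BilinForm F V) (hβ : ∀ u v, β u v = κ₀ (B u v))
    (t : V ≃ₗ[F] V) (ht : t ∈ isoGrp β) (x : V) (a c : K) (hac : κ₀ (c * a) = 0)
    (htx : ∀ l : K, t (l • x) = l • x + κ₀ (c * l) • (a • x)) (lam : K) (v : V) :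
    (t * kstv F B hB x lam * t⁻¹ * (kstv F B hB x lam)⁻¹) v = v + Dl κ₀ a c lam (B v x) • x := by
  rw [LinearEquiv.mul_apply, LinearEquiv.mul_apply, LinearEquiv.mul_apply, kstv_inv_apply,
    kstv_apply, SDELTA_key B κ₀ hκ β hβ t ht x a c htx, map_add]
  have h4 : ∀ y, t (t⁻¹ y) = y := fun y => t.apply_symm_apply y
  have h5 : B (v - (lam * B v x) • x) x = B v x := by
    rw [map_sub, LinearMap.sub_apply, map_smul, LinearMap.smul_apply, hB x, smul_zero, sub_zero]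
  rw [h4, htx, h5]
  set z := B v x with hz
  have h6 : κ₀ (c * (lam * (z + κ₀ (a * z) • c)))
      = κ₀ (lam * c * z) + κ₀ (lam * c * c) * κ₀ (a * z) := by
    have : c * (lam * (z + κ₀ (a * z) • c)) = lam * c * z + κ₀ (a * z) • (lam * c * c) := by
      rw [mul_add, mul_add, mul_smul_comm, mul_smul_comm]
      ring_nf
    rw [this, map_add, map_smul, smul_eq_mul, mul_comm (κ₀ (a * z))]
  rw [h6, Dl]
  simp only [add_smul, mul_add, mul_smul_comm, smul_assoc]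
  module

end Cfsg.Agent.Lib.Helper97.C3S
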