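import Cfsg.Agent.Lib.Helper97.C3S.SDELTA

/-!
# Ladder C3S, rung SQ3: `q ≥ 3` gives a symplectic `F`-transvection
-/

set_option autoImplicit false

namespace Cfsg.Agent.Lib.Helper97.C3S

open Module Cfsg.Agent.Lib.Helper95 Cfsg.Agent.Lib.Helper97.C3

variable {F K V : Type*} [Field F] [Field K] [Algebra F K] [AddCommGroup V]
  [Module F V] [Module K V] [IsScalarTower F K V]

omit [IsScalarTower F K V] in
lemma SQ3_inv (B : LinearMap.BilinForm K V) (hB : B.IsAlt) {x : V} {E : V ≃ₗ[F] V} {ψ : K → K}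
    (hE : ∀ v, E v = v + ψ (B v x) • x) (v : V) : E⁻¹ v = v - ψ (B v x) • x := by
  have h5 : B (v - ψ (B v x) • x) x = B v x := by
    rw [map_sub, LinearMap.sub_apply, map_smul, LinearMap.smul_apply, hB x, smul_zero, sub_zero]
  have h1 : E (v - ψ (B v x) • x) = v := by
    rw [hE, h5]; abel
  calc E⁻¹ v = E⁻¹ (E (v - ψ (B v x) • x)) := by rw [h1]
    _ = v - ψ (B v x) • x := E.symm_apply_apply _

omit [IsScalarTower F K V] in
/-- the quotient of two maps of the shape `v ↦ v + ψ (B v x) • x` -/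
lemma SQ3_quot (B : LinearMap.BilinForm K V) (hB : B.IsAlt) {x : V} {E1 E2 : V ≃ₗ[F] V}
    {ψ1 ψ2 : K → K} (hE1 : ∀ v, E1 v = v + ψ1 (B v x) • x) (hE2 : ∀ v, E2 v = v + ψ2 (B v x) • x)
    (v : V) : (E1 * E2⁻¹) v = v + (ψ1 (B v x) - ψ2 (B v x)) • x := by
  have h5 : B (v - ψ2 (B v x) • x) x = B v x := by
    rw [map_sub, LinearMap.sub_apply, map_smul, LinearMap.smul_apply, hB x, smul_zero, sub_zero]
  rw [LinearEquiv.mul_apply, SQ3_inv B hB hE2, hE1, h5, sub_smul]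
  abel

theorem hasSTV_q3 [Fintype F] [FiniteDimensional F K] (hq : 3 ≤ Fintype.card F)
    (hr : 2 ≤ finrank F K) (B : LinearMap.BilinForm K V) (hB : B.IsAlt) (κ₀ : K →ₗ[F] F)
    (hκ : κ₀ ≠ 0) (β : LinearMap.BilinForm F V) (hβa : β.IsAlt) (hβ : ∀ u v, β u v = κ₀ (B u v))
    (X : Subgroup (V ≃ₗ[F] V)) (hX : BigS B X) (hXle : X ≤ isoGrp β) {x : V} (hx : x ≠ 0)
    {ω : K →ₗ[F] F} (hω : ω ≠ 0) (ht : TAct X x ω) : HasSTV β hβa X := by
  classical
  obtain ⟨c, hc⟩ := dualK hκ ω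
  have hc0 : c ≠ 0 := by
    rintro rfl
    apply hω
    ext l
    rw [hc]; simp
  have hrank : finrank F (LinearMap.ker ω) + finrank F (LinearMap.range ω) = finrank F K := by
    rw [add_comm]; exact LinearMap.finrank_range_add_finrank_ker ω
  have hrange : finrank F (LinearMap.range ω) ≤ 1 := by
    have := Submodule.finrank_le (LinearMap.range ω)
    simpa using this
  have hkerbot : LinearMap.ker ω ≠ ⊥ := by
    intro h
    rw [h, finrank_bot] at hrank
    omega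
  obtain ⟨a, ha1, ha0⟩ := (Submodule.ne_bot_iff _).1 hkerbot
  have hωa : ω a = 0 := LinearMap.mem_ker.1 ha1
  obtain ⟨m, hm⟩ : ∃ m, κ₀ m ≠ 0 := by
    by_contra hcon
    push Not at hcon
    exact hκ (LinearMap.ext hcon)
  set lam := m * (c * c)⁻¹ with hlam
  have he : κ₀ (lam * c * c) = κ₀ m := by
    rw [hlam, mul_assoc, mul_assoc, inv_mul_cancel₀ (mul_ne_zero hc0 hc0), mul_one]
  obtain ⟨s, hs⟩ : ∃ s : F, s ∉ ({0, 1} : Finset F) := by
    by_contra hcon
    push Not at hcon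
    have h1 : (Finset.univ : Finset F) ⊆ {0, 1} := fun y _ => hcon y
    have h2 := Finset.card_le_card h1
    have h3 : ({0, 1} : Finset F).card ≤ 2 := Finset.card_le_two
    rw [Finset.card_univ] at h2
    omega
  have hs0 : s ≠ 0 := fun h => hs (by simp [h])
  have hs1 : s ≠ 1 := fun h => hs (by simp [h])
  obtain ⟨t1, ht1X, ht1⟩ := ht (s • a) (by rw [map_smul, hωa, smul_zero])
  obtain ⟨t2, ht2X, ht2⟩ := ht a hωa
  have hE1 := delta_formula B hB κ₀ hκ β hβ t1 (hXle ht1X) x (s • a) c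
    (by rw [← hc, map_smul, hωa, smul_zero]) (fun l => by rw [ht1, hc]) lam
  have hE2 := delta_formula B hB κ₀ hκ β hβ t2 (hXle ht2X) x a c
    (by rw [← hc, hωa]) (fun l => by rw [ht2, hc]) (s • lam)
  have hE1X : t1 * kstv F B hB x lam * t1⁻¹ * (kstv F B hB x lam)⁻¹ ∈ X :=
    X.mul_mem (X.mul_mem (X.mul_mem ht1X (kstv_mem hB hX x lam)) (X.inv_mem ht1X))
      (X.inv_mem (kstv_mem hB hX x lam))
  have hE2X : t2 * kstv F B hB x (s • lam) * t2⁻¹ * (kstv F B hB x (s • lam))⁻¹ ∈ X :=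
    X.mul_mem (X.mul_mem (X.mul_mem ht2X (kstv_mem hB hX x _)) (X.inv_mem ht2X))
      (X.inv_mem (kstv_mem hB hX x _))
  refine ⟨a • x, (s ^ 2 - s) * κ₀ m, smul_ne_zero ha0 hx, ?_, ?_⟩
  · apply mul_ne_zero _ hm
    have : s ^ 2 - s = s * (s - 1) := by ring
    rw [this]
    exact mul_ne_zero hs0 (sub_ne_zero.2 hs1)
  · have hD : ∀ z : K, Dl κ₀ (s • a) c lam z - Dl κ₀ a c (s • lam) z
        = ((s ^ 2 - s) * κ₀ m * κ₀ (a * z)) • a := by
      intro z
      simp only [Dl, smul_mul_assoc, map_smul, smul_eq_mul, he]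
      module
    have heq : stv β hβa (a • x) ((s ^ 2 - s) * κ₀ m)
        = (t1 * kstv F B hB x lam * t1⁻¹ * (kstv F B hB x lam)⁻¹) *
          (t2 * kstv F B hB x (s • lam) * t2⁻¹ * (kstv F B hB x (s • lam))⁻¹)⁻¹ := by
      apply LinearEquiv.ext
      intro v
      rw [SQ3_quot B hB hE1 hE2, hD, stv_apply, hβ, map_smul, smul_eq_mul, smul_assoc]
    rw [heq]
    exact X.mul_mem hE1X (X.inv_mem hE2X)

end Cfsg.Agent.Lib.Helper97.C3S
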