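import Cfsg.Agent.Lib.Helper97.C3S.SQ3

/-!
# Ladder C3S, rung SR3: `r ≥ 3` gives a symplectic `F`-transvection
-/

set_option autoImplicit false

namespace Cfsg.Agent.Lib.Helper97.C3S

open Module Cfsg.Agent.Lib.Helper95 Cfsg.Agent.Lib.Helper97.C3

variable {F K V : Type*} [Field F] [Field K] [Algebra F K] [AddCommGroup V]
  [Module F V] [Module K V] [IsScalarTower F K V]

theorem hasSTV_r3 [FiniteDimensional F K] (hr : 3 ≤ finrank F K)
    (B : LinearMap.BilinForm K V) (hB : B.IsAlt) (κ₀ : K →ₗ[F] F)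
    (hκ : κ₀ ≠ 0) (β : LinearMap.BilinForm F V) (hβa : β.IsAlt) (hβ : ∀ u v, β u v = κ₀ (B u v))
    (X : Subgroup (V ≃ₗ[F] V)) (hX : BigS B X) (hXle : X ≤ isoGrp β) {x : V} (hx : x ≠ 0)
    (ht : ∀ ω : K →ₗ[F] F, TAct X x ω) : HasSTV β hβa X := by
  -- common zeros of two functionals
  have hzero : ∀ φ ψ : K →ₗ[F] F, ∃ l : K, l ≠ 0 ∧ φ l = 0 ∧ ψ l = 0 := by
    intro φ ψ
    have hrank := LinearMap.finrank_range_add_finrank_ker (φ.prod ψ)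
    have hrange : finrank F (LinearMap.range (φ.prod ψ)) ≤ 2 := by
      have := Submodule.finrank_le (LinearMap.range (φ.prod ψ))
      simpa using this
    have hkerbot : LinearMap.ker (φ.prod ψ) ≠ ⊥ := by
      intro h
      rw [h, finrank_bot] at hrank
      omega
    obtain ⟨l, hl1, hl0⟩ := (Submodule.ne_bot_iff _).1 hkerbot
    have h2 : (φ.prod ψ) l = 0 := LinearMap.mem_ker.1 hl1
    have h3 : (φ l, ψ l) = 0 := h2
    rw [Prod.mk_eq_zero] at h3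
    exact ⟨l, hl0, h3.1, h3.2⟩
  obtain ⟨c, hc0, hc1, -⟩ := hzero κ₀ κ₀
  obtain ⟨m, hm⟩ : ∃ m, κ₀ m ≠ 0 := by
    by_contra hcon
    push Not at hcon
    exact hκ (LinearMap.ext hcon)
  set y := m * c⁻¹ with hy
  have hyc : y * c = m := by rw [hy, mul_assoc, inv_mul_cancel₀ hc0, mul_one]
  obtain ⟨c', hc'0, hc'1, hc'2⟩ := hzero κ₀ (κ₀ ∘ₗ LinearMap.mulLeft F y)
  have hc'y : κ₀ (y * c') = 0 := hc'2
  obtain ⟨t1, ht1X, ht1⟩ := ht (κ₀ ∘ₗ LinearMap.mulLeft F c) 1 (by simpa using hc1)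
  obtain ⟨t2, ht2X, ht2⟩ := ht (κ₀ ∘ₗ LinearMap.mulLeft F c') 1 (by simpa using hc'1)
  set lam := y * c⁻¹ with hlam
  set lam' := y * c'⁻¹ with hlam'
  have hl1 : lam * c = y := by rw [hlam, mul_assoc, inv_mul_cancel₀ hc0, mul_one]
  have hl2 : lam' * c' = y := by rw [hlam', mul_assoc, inv_mul_cancel₀ hc'0, mul_one]
  have hE1 := delta_formula B hB κ₀ hκ β hβ t1 (hXle ht1X) x 1 c
    (by rw [mul_one, hc1]) (fun l => by rw [ht1]; rfl) lam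
  have hE2 := delta_formula B hB κ₀ hκ β hβ t2 (hXle ht2X) x 1 c'
    (by rw [mul_one, hc'1]) (fun l => by rw [ht2]; rfl) lam'
  have hE1X : t1 * kstv F B hB x lam * t1⁻¹ * (kstv F B hB x lam)⁻¹ ∈ X :=
    X.mul_mem (X.mul_mem (X.mul_mem ht1X (kstv_mem hB hX x lam)) (X.inv_mem ht1X))
      (X.inv_mem (kstv_mem hB hX x lam))
  have hE2X : t2 * kstv F B hB x lam' * t2⁻¹ * (kstv F B hB x lam')⁻¹ ∈ X :=
    X.mul_mem (X.mul_mem (X.mul_mem ht2X (kstv_mem hB hX x _)) (X.inv_mem ht2X))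
      (X.inv_mem (kstv_mem hB hX x _))
  refine ⟨x, κ₀ m, hx, hm, ?_⟩
  have hD : ∀ z : K, Dl κ₀ 1 c lam z - Dl κ₀ 1 c' lam' z = (κ₀ m * κ₀ z) • (1 : K) := by
    intro z
    simp only [Dl, hl1, hl2, hyc, hc'y, one_mul]
    module
  have heq : stv β hβa x (κ₀ m)
      = (t1 * kstv F B hB x lam * t1⁻¹ * (kstv F B hB x lam)⁻¹) *
        (t2 * kstv F B hB x lam' * t2⁻¹ * (kstv F B hB x lam')⁻¹)⁻¹ := by
    apply LinearEquiv.ext
    intro v
    rw [SQ3_quot B hB hE1 hE2, hD, stv_apply, hβ, smul_assoc, one_smul]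
  rw [heq]
  exact X.mul_mem hE1X (X.inv_mem hE2X)

end Cfsg.Agent.Lib.Helper97.C3S
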