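import Cfsg.Agent.Lib.Helper97.C3S.SSTEP

/-!
# Ladder C3S, rung STACT: transvections induced on a `K`-point
-/

set_option autoImplicit false

namespace Cfsg.Agent.Lib.Helper97.C3S

open Module Cfsg.Agent.Lib.Helper95 Cfsg.Agent.Lib.Helper97.C3

variable {F K V : Type*} [Field F] [Field K] [Algebra F K] [AddCommGroup V]
  [Module F V] [Module K V] [IsScalarTower F K V]

private lemma stact_aux [FiniteDimensional K V]
    (B : LinearMap.BilinForm K V) (hB : B.IsAlt) (hnd : B.Nondegenerate)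
    (X : Subgroup (V ≃ₗ[F] V)) (hX : BigS B X) {x₀ p1 : V} (hp1 : p1 ∉ kpt F K x₀) :
    ∃ f0 : V →ₗ[K] K, f0 x₀ = 0 ∧ f0 p1 = 1 ∧ ∀ n : K, ∃ T ∈ X, ∀ (c : F) (k : K),
      T (c • p1 + k • x₀) = (c • p1 + k • x₀) + (n * f0 (c • p1 + k • x₀)) • x₀ := by
  by_cases hA : B p1 x₀ = 0
  · obtain ⟨y0, hy1, hy2⟩ := exists_perp_one B hB hnd hp1
    refine ⟨B.flip y0, by simpa using hy1, by simpa using hy2, fun n => ?_⟩
    refine ⟨krho F B hB x₀ (n • y0), krho_mem hB hX _ _, fun c k => ?_⟩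
    have hxy : B x₀ (n • y0) = 0 := by rw [map_smul, hy1, smul_zero]
    have h0 : B (c • p1 + k • x₀) x₀ = 0 := by
      rw [← algebraMap_smul K c p1, map_add, LinearMap.add_apply, map_smul, map_smul,
        LinearMap.smul_apply, LinearMap.smul_apply, hB x₀, hA, smul_zero, smul_zero, add_zero]
    rw [krho_apply B hB hxy, h0, zero_smul, add_zero]
    simp
  · refine ⟨(B p1 x₀)⁻¹ • B.flip x₀, by simp [hB x₀], by simp [hA], fun n => ?_⟩
    refine ⟨kstv F B hB x₀ (n * (B p1 x₀)⁻¹), kstv_mem hB hX _ _, fun c k => ?_⟩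
    rw [kstv_apply]
    simp [mul_assoc]

theorem tactS [FiniteDimensional F K] [FiniteDimensional K V]
    (B : LinearMap.BilinForm K V) (hB : B.IsAlt) (hnd : B.Nondegenerate)
    (X : Subgroup (V ≃ₗ[F] V)) (hX : BigS B X) {x x₀ : V} {g : V ≃ₗ[F] V} {ω : K →ₗ[F] F}
    (h : CloseW K X x g x₀ ω) : TAct X x ω := by
  obtain ⟨hx, hx₀, hg, hω, hiff⟩ := h
  obtain ⟨l1, hl1⟩ : ∃ l1 : K, ω l1 = 1 := by
    obtain ⟨l0, hl0⟩ : ∃ l0, ω l0 ≠ 0 := by
      by_contra hcon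
      push Not at hcon
      exact hω (LinearMap.ext hcon)
    exact ⟨(ω l0)⁻¹ • l0, by rw [map_smul, smul_eq_mul, inv_mul_cancel₀ hl0]⟩
  have hp : l1 • x ∉ (kpt F K x₀).map g.toLinearMap := by
    intro hmem
    have := (hiff l1).2 hmem
    rw [hl1] at this
    exact one_ne_zero this
  have hp1 : g.symm (l1 • x) ∉ kpt F K x₀ := by
    intro hmem
    exact hp ⟨_, hmem, by simp⟩
  have hdec : ∀ l : K, ∃ k : K, g.symm (l • x) = ω l • g.symm (l1 • x) + k • x₀ := by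
    intro l
    have h0 : ω (l - ω l • l1) = 0 := by
      rw [map_sub, map_smul, hl1, smul_eq_mul, mul_one, sub_self]
    obtain ⟨z, hz, hgz⟩ := (hiff _).1 h0
    obtain ⟨k, rfl⟩ := mem_kpt.1 hz
    refine ⟨k, ?_⟩
    have h1 : l • x = ω l • (l1 • x) + g (k • x₀) := by
      have : g (k • x₀) = (l - ω l • l1) • x := hgz
      rw [this, sub_smul, smul_assoc]
      abel
    rw [h1, map_add, map_smul, LinearEquiv.symm_apply_apply]
  obtain ⟨f0, hf1, hf2, hT⟩ := stact_aux B hB hnd X hX hp1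
  intro a ha
  obtain ⟨z, hz, hgz⟩ := (hiff a).1 ha
  obtain ⟨n, rfl⟩ := mem_kpt.1 hz
  have hgn : g (n • x₀) = a • x := hgz
  obtain ⟨T, hTX, hTv⟩ := hT n
  refine ⟨g * T * g⁻¹, X.mul_mem (X.mul_mem hg hTX) (X.inv_mem hg), fun l => ?_⟩
  obtain ⟨k, hk⟩ := hdec l
  have e1 : (g * T * g⁻¹) (l • x) = g (T (g.symm (l • x))) := rfl
  have e2 : f0 (ω l • g.symm (l1 • x) + k • x₀) = algebraMap F K (ω l) := by
    rw [← algebraMap_smul K (ω l), map_add, f0.map_smul, f0.map_smul, hf1, hf2, smul_zero, add_zero,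
      smul_eq_mul, mul_one]
  rw [e1, hk, hTv, e2, map_add, ← hk, LinearEquiv.apply_symm_apply, mul_comm, mul_smul,
    algebraMap_smul, map_smul, hgn]

end Cfsg.Agent.Lib.Helper97.C3S
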