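import Cfsg.Agent.Lib.Helper97.C3S.Defs

/-!
# Ladder C3S, rung STALL: all transvections are induced on a `K`-point
-/

set_option autoImplicit false

namespace Cfsg.Agent.Lib.Helper97.C3S

open Module Cfsg.Agent.Lib.Helper95 Cfsg.Agent.Lib.Helper97.C3

variable {F K V : Type*} [Field F] [Field K] [Algebra F K] [AddCommGroup V]
  [Module F V] [Module K V] [IsScalarTower F K V]

theorem tact_all [FiniteDimensional F K] (B : LinearMap.BilinForm K V) (hB : B.IsAlt)
    (hnd : B.Nondegenerate) (X : Subgroup (V ≃ₗ[F] V)) (hX : BigS B X) {x : V} (hx : x ≠ 0)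
    {ω : K →ₗ[F] F} (hω : ω ≠ 0) (ht : TAct X x ω) (ω' : K →ₗ[F] F) : TAct X x ω' := by
  obtain ⟨mu, hmu⟩ := dualK hω ω'
  by_cases hmu0 : mu = 0
  · intro a _
    refine ⟨1, X.one_mem, fun l => ?_⟩
    rw [hmu, hmu0, zero_mul, map_zero, zero_smul, add_zero]
    rfl
  have hU : NondegOn B ⊤ := by
    intro y _ hy
    by_contra hcon
    push Not at hcon
    exact hy (hnd.1 y fun z => hcon z trivial)
  obtain ⟨h, hh, hhx⟩ := transA hB hU (Submodule.mem_top (x := x))
    (Submodule.mem_top (x := mu⁻¹ • x)) hx (smul_ne_zero (inv_ne_zero hmu0) hx)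
  have hiso : h ∈ isoGrp B := tvGrp_le_isoGrp hB ⊤ hh
  have hhX : h.restrictScalars F ∈ X := hX h hiso
  intro a' ha'
  obtain ⟨t, htX, htl⟩ := ht (mu * a') (by rw [← hmu]; exact ha')
  refine ⟨h.restrictScalars F * t * (h.restrictScalars F)⁻¹,
    X.mul_mem (X.mul_mem hhX htX) (X.inv_mem hhX), fun l => ?_⟩
  have e0 : h.symm x = mu • x := by
    rw [LinearEquiv.symm_apply_eq, map_smul, hhx, smul_smul, mul_inv_cancel₀ hmu0, one_smul]
  have e1 : (h.restrictScalars F * t * (h.restrictScalars F)⁻¹) (l • x) = h (t (h.symm (l • x))) :=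
    rfl
  rw [e1, map_smul, e0, smul_smul, htl, map_add, map_smul, hhx, smul_smul, mul_assoc,
    mul_inv_cancel₀ hmu0, mul_one, hmu, mul_comm l mu]
  congr 1
  rw [← algebraMap_smul K (ω (mu * l)), map_smul, map_smul, hhx, smul_smul (mu * a'),
    mul_comm mu a', mul_assoc, mul_inv_cancel₀ hmu0, mul_one, algebraMap_smul]

end Cfsg.Agent.Lib.Helper97.C3S
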