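import Cfsg.Agent.Lib.Helper97.C3S.STEP2
import Cfsg.Agent.Lib.Helper97.C3S.MAXINT2
import Cfsg.Agent.Lib.Helper97.C3S.SSTEP
import Cfsg.Agent.Lib.Helper97.C3S.STACT
import Cfsg.Agent.Lib.Helper97.C3S.SDELTA
import Cfsg.Agent.Lib.Helper97.C3S.SQ3
import Cfsg.Agent.Lib.Helper97.C3S.STALL
import Cfsg.Agent.Lib.Helper97.C3S.SR3
import Cfsg.Agent.Lib.Helper97.C3S.S22A
import Cfsg.Agent.Lib.Helper97.C3S.S22B
import Cfsg.Agent.Lib.Helper97.C3S.SALL
import Cfsg.Agent.Lib.Helper97.C3S.FORM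
import Cfsg.Agent.Lib.Helper97.C3.SPREAD
import Cfsg.Agent.Lib.Helper97.C3.RK1

/-!
# Ladder C3S: assembly.  An overgroup of the `K`-isometries inside the `F`-isometries which is not
`K`-semilinear contains every symplectic `F`-transvection.
-/

set_option autoImplicit false

namespace Cfsg.Agent.Lib.Helper97.C3S

open Module Cfsg.Agent.Lib.Helper95 Cfsg.Agent.Lib.Helper97.C3

variable {F K V : Type*} [Field F] [Field K] [Algebra F K] [AddCommGroup V]
  [Module F V] [Module K V] [IsScalarTower F K V]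

/- ASSEMBLY (helper97) -/
theorem coreS [Fintype F] [FiniteDimensional F K] [FiniteDimensional K V]
    (hr : (finrank F K).Prime) (hm : 2 ≤ finrank K V)
    (hm22 : Fintype.card F = 2 → finrank F K = 2 → 4 ≤ finrank K V)
    (B : LinearMap.BilinForm K V) (hB : B.IsAlt) (hnd : B.Nondegenerate) (κ₀ : K →ₗ[F] F)
    (hκ : κ₀ ≠ 0) (β : LinearMap.BilinForm F V) (hβa : β.IsAlt) (hβ : ∀ u v, β u v = κ₀ (B u v))
    (X : Subgroup (V ≃ₗ[F] V)) (hX : BigS B X) (hXle : X ≤ isoGrp β)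
    (g : V ≃ₗ[F] V) (hg : g ∈ X) (hgN : ¬ Nrm K g) (v : V) (c : F) : stv β hβa v c ∈ X := by
  apply all_stv B hB hnd κ₀ β hβa hβ X hX
  have h1 : ∃ x₀ : V, ∀ y : V, (kpt F K x₀).map g.toLinearMap ≠ kpt F K y := by
    by_contra hcon
    push Not at hcon
    exact hgN (nrm_of_points hm g hcon)
  obtain ⟨x₀, hx₀⟩ := h1
  obtain ⟨x, g', x₀', hc⟩ := exists_close_of_step X (stepProp_of_bigS hr B hB hnd X hX) g hg x₀ hx₀
  obtain ⟨ω, hw⟩ := closeW_of_close X hc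
  have ht := tactS B hB hnd X hX hw
  rcases Nat.lt_or_ge 2 (Fintype.card F) with hq | hq
  · exact hasSTV_q3 hq hr.two_le B hB κ₀ hκ β hβa hβ X hX hXle hw.1 hw.2.2.2.1 ht
  · have hq2 : Fintype.card F = 2 := le_antisymm hq Fintype.one_lt_card
    rcases Nat.lt_or_ge 2 (finrank F K) with hr3 | hr3
    · exact hasSTV_r3 hr3 B hB κ₀ hκ β hβa hβ X hX hXle hw.1
        (tact_all B hB hnd X hX hw.1 hw.2.2.2.1 ht)
    · have hr2 : finrank F K = 2 := le_antisymm hr3 hr.two_le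
      exact hasSTV_two_two hq2 hr2 (hm22 hq2 hr2) B hB hnd κ₀ hκ β hβa hβ X hX hXle hw

end Cfsg.Agent.Lib.Helper97.C3S
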