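import Cfsg.Agent.Lib.Helper97.C3.Basic
import Cfsg.Agent.Lib.Helper95.Symp

/-!
# Extension-field subgroups of `Sp_n(F)`: common definitions (ladder C3S, statement S5664)

`F ⊆ K` finite fields, `V` a `K`-space with a non-degenerate alternating `K`-form `B`;
`β = κ₀ ∘ B` is the induced alternating `F`-form.  `X` is a group of `β`-isometries containing
all `K`-linear `B`-isometries.
-/

set_option autoImplicit false

namespace Cfsg.Agent.Lib.Helper97.C3S

open Module Cfsg.Agent.Lib.Helper95 Cfsg.Agent.Lib.Helper97.C3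

variable {F K V : Type*} [Field F] [Field K] [Algebra F K] [AddCommGroup V]
  [Module F V] [Module K V] [IsScalarTower F K V]

/-- `X` contains all `K`-linear isometries of `B`. -/
def BigS (B : LinearMap.BilinForm K V) (X : Subgroup (V ≃ₗ[F] V)) : Prop :=
  ∀ e ∈ isoGrp B, e.restrictScalars F ∈ X

variable (F) in
/-- A symplectic `K`-transvection `v ↦ v + (l * B v x) • x`, as an `F`-linear automorphism. -/
def kstv (B : LinearMap.BilinForm K V) (hB : B.IsAlt) (x : V) (l : K) : V ≃ₗ[F] V :=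
  (stv B hB x l).restrictScalars F

@[simp] lemma kstv_apply (B : LinearMap.BilinForm K V) (hB : B.IsAlt) (x : V) (l : K) (v : V) :
    kstv F B hB x l v = v + (l * B v x) • x := by
  change stv B hB x l v = _
  rw [stv_apply]

lemma kstv_inv_apply (B : LinearMap.BilinForm K V) (hB : B.IsAlt) (x : V) (l : K) (v : V) :
    (kstv F B hB x l)⁻¹ v = v - (l * B v x) • x := by
  have h1 : kstv F B hB x l (v - (l * B v x) • x) = v := by
    simp [hB x]
  calc (kstv F B hB x l)⁻¹ v = (kstv F B hB x l)⁻¹ (kstv F B hB x l (v - (l * B v x) • x)) := by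
        rw [h1]
    _ = v - (l * B v x) • x := by
      change (kstv F B hB x l).symm (kstv F B hB x l (v - (l * B v x) • x)) = _
      rw [LinearEquiv.symm_apply_apply]

lemma kstv_mem {B : LinearMap.BilinForm K V} (hB : B.IsAlt) {X : Subgroup (V ≃ₗ[F] V)}
    (hX : BigS B X) (x : V) (l : K) : kstv F B hB x l ∈ X :=
  hX _ (stv_mem_isoGrp hB x l)

variable (F) in
/-- The isometry `v ↦ v + B v x • y + B v y • x` (`B x y = 0`), as an `F`-linear automorphism. -/
def krho (B : LinearMap.BilinForm K V) (hB : B.IsAlt) (x y : V) : V ≃ₗ[F] V :=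
  (stv B hB (x + y) 1 * stv B hB x (-1) * stv B hB y (-1)).restrictScalars F

lemma krho_apply (B : LinearMap.BilinForm K V) (hB : B.IsAlt) {x y : V} (hxy : B x y = 0) (v : V) :
    krho F B hB x y v = v + B v x • y + B v y • x := by
  have hyx : B y x = 0 := by rw [alt_swap hB, hxy, neg_zero]
  change (stv B hB (x + y) 1 * stv B hB x (-1) * stv B hB y (-1)) v = _
  simp only [LinearEquiv.mul_apply, stv_apply, map_add, map_smul, hB x, hB y, hxy, hyx]
  module

lemma krho_mem {B : LinearMap.BilinForm K V} (hB : B.IsAlt) {X : Subgroup (V ≃ₗ[F] V)}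
    (hX : BigS B X) (x y : V) : krho F B hB x y ∈ X :=
  hX _ (mul_mem (mul_mem (stv_mem_isoGrp hB _ _) (stv_mem_isoGrp hB _ _)) (stv_mem_isoGrp hB _ _))

variable (K) in
/-- The step property: the intersection of a `K`-point with `P'` can be enlarged inside the
`X`-orbit of `P'`. -/
def StepProp (X : Subgroup (V ≃ₗ[F] V)) : Prop :=
  ∀ (x : V) (P' : Submodule F V), x ≠ 0 → kpt F K x ⊓ P' ≠ ⊥ → ¬ kpt F K x ≤ P' →
    finrank F ↥(kpt F K x ⊓ P') + 2 ≤ finrank F ↥P' →
    ∃ t ∈ X, P'.map t.toLinearMap ≠ P' ∧ kpt F K x ⊓ P' < P'.map t.toLinearMap ⊓ P'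

/-- `X` contains a non-trivial symplectic `F`-transvection. -/
def HasSTV (β : LinearMap.BilinForm F V) (hβ : β.IsAlt) (X : Subgroup (V ≃ₗ[F] V)) : Prop :=
  ∃ (u : V) (e : F), u ≠ 0 ∧ e ≠ 0 ∧ stv β hβ u e ∈ X

/-- The relation `t_u t_v ∈ X` (used over the field with two elements). -/
def Rel (β : LinearMap.BilinForm F V) (hβ : β.IsAlt) (X : Subgroup (V ≃ₗ[F] V)) (u v : V) : Prop :=
  stv β hβ u 1 * stv β hβ v 1 ∈ X

/-- The operator `τ λ τ* - λ` on `K`. -/
def Dl (κ₀ : K →ₗ[F] F) (a c lam z : K) : K :=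
  κ₀ (a * z) • (lam * c) + κ₀ (lam * c * z) • a + (κ₀ (lam * c * c) * κ₀ (a * z)) • a

end Cfsg.Agent.Lib.Helper97.C3S
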