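import Cfsg.Agent.Lib.Helper97.C3S.Defs

/-!
# Ladder C3S, rung FORM: the `K`-form behind a `K`-self-adjoint `F`-form
-/

set_option autoImplicit false

namespace Cfsg.Agent.Lib.Helper97.C3S

open Module Cfsg.Agent.Lib.Helper95 Cfsg.Agent.Lib.Helper97.C3

variable {F K V : Type*} [Field F] [Field K] [Algebra F K] [AddCommGroup V]
  [Module F V] [Module K V] [IsScalarTower F K V]

private lemma form_uniq {κ₀ : K →ₗ[F] F} (hκ : κ₀ ≠ 0) {z : K} (h : ∀ l : K, κ₀ (l * z) = 0) :
    z = 0 := by
  by_contra hz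
  apply hκ
  ext l
  have := h (l * z⁻¹)
  rwa [mul_assoc, inv_mul_cancel₀ hz, mul_one] at this

theorem exists_kform [FiniteDimensional F K] (κ₀ : K →ₗ[F] F) (hκ : κ₀ ≠ 0)
    (β : LinearMap.BilinForm F V) (hβn : β.Nondegenerate)
    (hsa : ∀ (k : K) (u v : V), β (k • u) v = β u (k • v)) (halt : ∀ (k : K) (v : V), β (k • v) v = 0) :
    ∃ B : LinearMap.BilinForm K V, B.IsAlt ∧ B.Nondegenerate ∧ ∀ u v, β u v = κ₀ (B u v) := by
  have hex : ∀ u : V, ∃ f : V →ₗ[K] K, ∀ v : V, β u v = κ₀ (f v) := fun u => dualV hκ (β u)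
  choose f hf using hex
  have huniq : ∀ (g g' : V →ₗ[K] K), (∀ v, κ₀ (g v) = κ₀ (g' v)) → g = g' := by
    intro g g' h
    ext v
    rw [← sub_eq_zero]
    apply form_uniq hκ
    intro l
    have := h (l • v)
    rw [g.map_smul, g'.map_smul, smul_eq_mul, smul_eq_mul] at this
    rw [mul_sub, map_sub, this, sub_self]
  have hβalt : ∀ v, β v v = 0 := fun v => by simpa using halt 1 v
  have hβa : β.IsAlt := hβalt
  let B : LinearMap.BilinForm K V :=
    { toFun := f
      map_add' := fun u u' => by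
        apply huniq
        intro v
        rw [LinearMap.add_apply, map_add, ← hf, ← hf, ← hf, map_add, LinearMap.add_apply]
      map_smul' := fun k u => by
        apply huniq
        intro v
        rw [RingHom.id_apply, LinearMap.smul_apply, smul_eq_mul, ← hf, hsa, hf, (f u).map_smul,
          smul_eq_mul] }
  have hBf : ∀ u v, B u v = f u v := fun u v => rfl
  have hβ : ∀ u v, β u v = κ₀ (B u v) := fun u v => hf u v
  have hB : B.IsAlt := by
    intro v
    apply form_uniq hκ
    intro l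
    have h1 : κ₀ (l * B v v) = β v (l • v) := by
      rw [hβ, (B v).map_smul, smul_eq_mul]
    rw [h1, ← hsa, halt]
  refine ⟨B, hB, ⟨?_, ?_⟩, hβ⟩
  · intro u hu
    apply hβn.1 u
    intro v
    rw [hβ, hu v, map_zero]
  · intro u hu
    apply hβn.2 u
    intro v
    rw [hβ, hu v, map_zero]

end Cfsg.Agent.Lib.Helper97.C3S
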