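import Cfsg.Agent.Lib.Helper97.C3S.Core
import Cfsg.Agent.Lib.Helper97.C3.NOTN
import Cfsg.Agent.Lib.Helper95.Glue2

/-!
# Ladder C3S: transfer to matrices
-/

set_option autoImplicit false

namespace Cfsg.Agent.Lib.Helper97.C3S

open Module Matrix Cfsg.Agent.Lib.Helper95 Cfsg.Agent.Lib.Helper97.C3

variable {F : Type*} [Field F] {ι : Type} [Fintype ι] [DecidableEq ι]

/-- A copy of a field subalgebra of matrices, carrying only the structures defined below. -/
def KS {r : ℕ} (K : Subalgebra F (Matrix ι ι F))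
    (_hK : Cfsg.Geo.IsFieldSubalgebra r K) : Type _ := ↥K

section KS

variable [Nonempty ι] {r : ℕ} (K : Subalgebra F (Matrix ι ι F))
    (hK : Cfsg.Geo.IsFieldSubalgebra r K)

/-- The field structure. -/
noncomputable def fieldKS : Field (KS K hK) :=
  @IsField.toField ↥K _
    { exists_pair_ne := ⟨0, 1, fun h => by
        have h1 : (0 : Matrix ι ι F) = 1 := congrArg Subtype.val h
        exact zero_ne_one h1⟩
      mul_comm := fun a b => Subtype.ext (hK.comm a.1 a.2 b.1 b.2)
      mul_inv_cancel := fun {a} ha => by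
        obtain ⟨y, hy, hxy⟩ := hK.inv a.1 a.2 (fun h => ha (Subtype.ext h))
        exact ⟨⟨y, hy⟩, Subtype.ext hxy⟩ }

noncomputable instance : Field (KS K hK) := fieldKS K hK

/-- The underlying matrix. -/
def KS.mat (a : KS K hK) : Matrix ι ι F := Subtype.val (p := fun x => x ∈ K) a

lemma KS.mat_mem (a : KS K hK) : KS.mat K hK a ∈ K := Subtype.property (p := fun x => x ∈ K) a

/-- Constructor. -/
def KS.mk (k : Matrix ι ι F) (hk : k ∈ K) : KS K hK := (⟨k, hk⟩ : ↥K)

@[simp] lemma KS.mat_mk (k : Matrix ι ι F) (hk : k ∈ K) :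
    KS.mat K hK (KS.mk K hK k hk) = k := rfl

lemma KS.ext {a b : KS K hK} (h : KS.mat K hK a = KS.mat K hK b) : a = b :=
  Subtype.ext (p := fun x => x ∈ K) h

/-- The inclusion as a ring homomorphism. -/
noncomputable def KS.incl : KS K hK →+* Matrix ι ι F where
  toFun := KS.mat K hK
  map_one' := rfl
  map_mul' _ _ := rfl
  map_zero' := rfl
  map_add' _ _ := rfl

noncomputable instance : Algebra F (KS K hK) :=
  RingHom.toAlgebra
    { toFun := fun c => KS.mk K hK (algebraMap F _ c) (K.algebraMap_mem c)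
      map_one' := KS.ext K hK (by simp; rfl)
      map_mul' := fun a b => KS.ext K hK (by
        change algebraMap F (Matrix ι ι F) (a * b) = algebraMap F _ a * algebraMap F _ b
        rw [map_mul])
      map_zero' := KS.ext K hK (by simp; rfl)
      map_add' := fun a b => KS.ext K hK (by
        change algebraMap F (Matrix ι ι F) (a + b) = algebraMap F _ a + algebraMap F _ b
        rw [map_add]) }

noncomputable instance : Module (KS K hK) (ι → F) :=
  Module.compHom (ι → F)
    ((Matrix.toLinAlgEquiv' : Matrix ι ι F ≃ₐ[F] _).toAlgHom.toRingHom.comp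
      (KS.incl K hK))

lemma KS.smul_def (a : KS K hK) (v : ι → F) : a • v = KS.mat K hK a *ᵥ v := rfl

lemma KS.mat_smul (c : F) (a : KS K hK) : KS.mat K hK (c • a) = c • KS.mat K hK a := by
  rw [Algebra.smul_def]
  change algebraMap F (Matrix ι ι F) c * KS.mat K hK a = _
  rw [← Algebra.smul_def]

instance : IsScalarTower F (KS K hK) (ι → F) := ⟨fun c a v => by
  rw [KS.smul_def, KS.smul_def, KS.mat_smul, Matrix.smul_mulVec]⟩

lemma KS.finrank_eq : finrank F (KS K hK) = r := by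
  let e : KS K hK ≃ₗ[F] ↥K :=
    { toFun := fun a => (⟨KS.mat K hK a, KS.mat_mem K hK a⟩ : ↥K)
      invFun := fun a => KS.mk K hK a.1 a.2
      left_inv := fun a => rfl
      right_inv := fun a => rfl
      map_add' := fun a b => rfl
      map_smul' := fun c a => Subtype.ext (KS.mat_smul K hK c a) }
  exact e.finrank_eq.trans hK.finrank_eq


end KS

section main

variable {r : ℕ} (K : Subalgebra F (Matrix ι ι F))

lemma conj_mem_iffS (g : GL ι F)
    (h : ∀ k ∈ K, (g : Matrix ι ι F) * k * ((g⁻¹ : GL ι F) : Matrix ι ι F) ∈ K) :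
    g ∈ Cfsg.Geo.subalgebraNormalizer K := by
  intro k
  refine ⟨h k, fun hk => ?_⟩
  let c : K →ₗ[F] K :=
    { toFun := fun a => ⟨_, h a.1 a.2⟩
      map_add' := fun a b => by ext : 1; simp [mul_add, add_mul]
      map_smul' := fun t a => by ext : 1; simp }
  have hinj : Function.Injective c := by
    intro a b hab
    have h1 : (g : Matrix ι ι F) * a.1 * ((g⁻¹ : GL ι F) : Matrix _ _ F)
        = (g : Matrix ι ι F) * b.1 * ((g⁻¹ : GL ι F) : Matrix _ _ F) :=
      congrArg Subtype.val hab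
    have h2 := congrArg (fun M => ((g⁻¹ : GL ι F) : Matrix _ _ F) * M * (g : Matrix _ _ F)) h1
    simp only [← mul_assoc] at h2
    simp only [← Units.val_mul, inv_mul_cancel, Units.val_one, one_mul] at h2
    simp only [mul_assoc, ← Units.val_mul, inv_mul_cancel, Units.val_one, mul_one] at h2
    exact Subtype.ext h2
  obtain ⟨a, ha⟩ := (LinearMap.injective_iff_surjective.1 hinj) ⟨_, hk⟩
  have h1 : (g : Matrix ι ι F) * a.1 * ((g⁻¹ : GL ι F) : Matrix _ _ F)
        = (g : Matrix ι ι F) * k * ((g⁻¹ : GL ι F) : Matrix _ _ F) :=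
      congrArg Subtype.val ha
  have h2 := congrArg (fun M => ((g⁻¹ : GL ι F) : Matrix _ _ F) * M * (g : Matrix _ _ F)) h1
  simp only [← mul_assoc] at h2
  simp only [← Units.val_mul, inv_mul_cancel, Units.val_one, one_mul] at h2
  simp only [mul_assoc, ← Units.val_mul, inv_mul_cancel, Units.val_one, mul_one] at h2
  rw [← h2]
  exact a.2

end main

/-- The main transfer. -/
theorem glueS [Fintype F] (m : ℕ) (hm : 7 ≤ m) (r : ℕ) (hr : r.Prime)
    (K : Subalgebra F (Matrix (Fin m ⊕ Fin m) (Fin m ⊕ Fin m) F))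
    (hK : Cfsg.Geo.IsFieldSubalgebra r K)
    (hsa : Cfsg.Geo.IsSelfAdjointFor (Cfsg.sympForm m F) K)
    (halt : ∀ k ∈ K, ∀ v : (Fin m ⊕ Fin m → F), Cfsg.sympForm m F (Matrix.mulVec k v) v = 0) :
    Cfsg.Geo.IsMaximalIn (Cfsg.spGL m F) (Cfsg.Geo.subalgebraNormalizer K ⊓ Cfsg.spGL m F) := by
  haveI : Nonempty (Fin m ⊕ Fin m) := ⟨Sum.inl ⟨0, by omega⟩⟩
  have hsmul : ∀ (a : KS K hK) (v : Fin m ⊕ Fin m → F), a • v = KS.mat K hK a *ᵥ v :=
    fun a v => rfl
  have hrK : finrank F (KS K hK) = r := KS.finrank_eq K hK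
  haveI : FiniteDimensional F (KS K hK) :=
    Module.finite_of_finrank_pos (by rw [hrK]; exact hr.pos)
  haveI : FiniteDimensional (KS K hK) (Fin m ⊕ Fin m → F) :=
    Module.Finite.of_restrictScalars_finite F (KS K hK) _
  have hrp : (finrank F (KS K hK)).Prime := by rw [hrK]; exact hr
  have hβa := sympB_isAlt (F := F) m
  have hβn := sympB_nondegenerate (F := F) m
  obtain ⟨κ₀, hκ1⟩ := exists_kappa (F := F) (K := KS K hK) one_ne_zero
  have hκ : κ₀ ≠ 0 := by rintro rfl; simp at hκ1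
  obtain ⟨B, hB, hnd, hβ⟩ := exists_kform κ₀ hκ (sympB m F) hβn
    (fun k u v => by
      rw [hsmul, hsmul, sympB_apply, sympB_apply]
      exact hsa _ (KS.mat_mem K hK k) u v)
    (fun k v => by
      rw [hsmul, sympB_apply]
      exact halt _ (KS.mat_mem K hK k) v)
  have hdim := Module.finrank_mul_finrank F (KS K hK) (Fin m ⊕ Fin m → F)
  rw [hrK, finrank_sum_fin] at hdim
  have hm2 : 2 ≤ finrank (KS K hK) (Fin m ⊕ Fin m → F) := by
    by_contra hcon
    have h1 : finrank (KS K hK) (Fin m ⊕ Fin m → F) ≤ 1 := by omega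
    obtain ⟨u, hu⟩ : ∃ u : Fin m ⊕ Fin m → F, u ≠ 0 := exists_ne 0
    apply hu
    apply hnd.1 u
    intro v
    by_contra hne
    obtain ⟨f, hf1, hf2⟩ : ∃ f : (Fin m ⊕ Fin m → F) →ₗ[KS K hK] KS K hK, f u = 0 ∧ f v = 1 := by
      apply exists_fun_one
      intro hv
      obtain ⟨c, rfl⟩ := Submodule.mem_span_singleton.1 hv
      apply hne
      rw [map_smul, hB u, smul_zero]
    obtain ⟨w, hw⟩ := finrank_le_one_iff.1 h1
    obtain ⟨c1, hc1⟩ := hw u
    obtain ⟨c2, hc2⟩ := hw v
    have hc10 : c1 ≠ 0 := by rintro rfl; exact hu (by rw [← hc1, zero_smul])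
    rw [← hc1, map_smul, smul_eq_mul] at hf1
    have hfw : f w = 0 := (mul_eq_zero.1 hf1).resolve_left hc10
    rw [← hc2, map_smul, hfw, smul_zero] at hf2
    exact zero_ne_one hf2
  have hm22 : Fintype.card F = 2 → finrank F (KS K hK) = 2 →
      4 ≤ finrank (KS K hK) (Fin m ⊕ Fin m → F) := by
    intro _ h2
    rw [hrK] at h2
    have h3 : 2 * finrank (KS K hK) (Fin m ⊕ Fin m → F) = 2 * m := by
      rw [← hdim]
      congr 1
      exact h2.symm
    omega
  have hN1 : ∀ e : (Fin m ⊕ Fin m → F) ≃ₗ[F] (Fin m ⊕ Fin m → F), Nrm (KS K hK) e →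
      e ∈ toLinGrp (Cfsg.Geo.subalgebraNormalizer K) := by
    intro e he
    rw [mem_toLinGrp]
    apply conj_mem_iffS
    intro k hk
    obtain ⟨b, hb⟩ := he (KS.mk K hK k hk)
    have : ((glEquiv.symm e : GL _ F) : Matrix (Fin m ⊕ Fin m) (Fin m ⊕ Fin m) F) * k
        = KS.mat K hK b * ((glEquiv.symm e : GL _ F) : Matrix (Fin m ⊕ Fin m) (Fin m ⊕ Fin m) F) := by
      apply Matrix.ext_of_mulVec_single
      intro i
      have := hb (Pi.single i 1)
      rw [hsmul, hsmul, ← glEquiv_symm_mulVec e, ← glEquiv_symm_mulVec e, Matrix.mulVec_mulVec,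
        Matrix.mulVec_mulVec] at this
      exact this
    rw [this, mul_assoc, ← Units.val_mul, mul_inv_cancel, Units.val_one, mul_one]
    exact KS.mat_mem K hK b
  have hN2 : ∀ e : (Fin m ⊕ Fin m → F) ≃ₗ[F] (Fin m ⊕ Fin m → F),
      e ∈ toLinGrp (Cfsg.Geo.subalgebraNormalizer K) → Nrm (KS K hK) e := by
    intro e he a
    rw [mem_toLinGrp] at he
    refine ⟨KS.mk K hK _ ((he (KS.mat K hK a)).1 (KS.mat_mem K hK a)), fun v => ?_⟩
    rw [hsmul, hsmul, ← glEquiv_symm_mulVec e, ← glEquiv_symm_mulVec e, Matrix.mulVec_mulVec,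
      Matrix.mulVec_mulVec, KS.mat_mk, mul_assoc, ← Units.val_mul, inv_mul_cancel, Units.val_one,
      mul_one]
  refine isMaximalIn_transfer (S' := toLinGrp (Cfsg.Geo.subalgebraNormalizer K)) (mem_spGL_iff m)
    (fun g => glEquiv_mem_toLinGrp.symm) ?_ ?_
  · obtain ⟨u, hu⟩ : ∃ u : Fin m ⊕ Fin m → F, u ≠ 0 := exists_ne 0
    refine ⟨stv (sympB m F) hβa u 1, stv_mem_isoGrp hβa u 1, fun h => ?_⟩
    have h1 := hN2 _ h
    have h2 : stv (sympB m F) hβa u 1 = atv κ₀ (B.flip u) u (by simp [hB u]) := by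
      ext v : 1
      rw [stv_apply, atv_apply, one_mul, hβ]
      rfl
    rw [h2] at h1
    refine not_nrm_atv hrp.two_le κ₀ (B.flip u) u _ hκ ?_ hu h1
    intro h0
    apply hu
    apply hnd.2 u
    intro v
    have := LinearMap.congr_fun h0 v
    simpa using this
  · intro M' hM' hM'le g hgM hgS
    apply isoGrp_le_of_stv_mem hβa hβn
    intro v c
    refine coreS hrp hm2 hm22 B hB hnd κ₀ hκ (sympB m F) hβa hβ M' ?_ hM'le g hgM
      (fun h => hgS (hN1 g h)) v c
    intro e he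
    apply hM'
    refine Subgroup.mem_inf.2 ⟨?_, hN1 _ (nrm_restrictScalars e)⟩
    intro x y
    rw [hβ, hβ]
    congr 1
    exact he x y

end Cfsg.Agent.Lib.Helper97.C3S
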