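import Cfsg.Agent.Lib.Helper97.C3S.Defs

/-!
# Ladder C3S, rung STEP2: enlarging the intersection with a `K`-point, prescribed functional
-/

set_option autoImplicit false

namespace Cfsg.Agent.Lib.Helper97.C3S

open Module Cfsg.Agent.Lib.Helper97.C3

variable {F K V : Type*} [Field F] [Field K] [Algebra F K] [AddCommGroup V]
  [Module F V] [Module K V] [IsScalarTower F K V]

private lemma step2_core (x : V) (P' : Submodule F V) (f : V →ₗ[K] K) (hf : f x = 0)
    (w1 w2 : V) (h1 : w1 ∈ P') (h1' : w1 ∉ kpt F K x) (h1'' : f w1 • x ∈ P')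
    (h2 : w2 ∈ P') (h2' : f w2 • x ∉ P') :
    P'.map (ktv F f x hf).toLinearMap ≠ P' ∧
      kpt F K x ⊓ P' < P'.map (ktv F f x hf).toLinearMap ⊓ P' := by
  constructor
  · intro heq
    have : ktv F f x hf w2 ∈ P'.map (ktv F f x hf).toLinearMap := ⟨w2, h2, rfl⟩
    rw [heq, ktv_apply] at this
    exact h2' (by simpa using P'.sub_mem this h2)
  · rw [SetLike.lt_iff_le_and_exists]
    constructor
    · rintro d ⟨hd1, hd2⟩
      refine ⟨⟨d, hd2, ?_⟩, hd2⟩
      obtain ⟨a, rfl⟩ := mem_kpt.1 hd1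
      change ktv F f x hf (a • x) = _
      rw [ktv_apply, map_smul, hf, smul_zero, zero_smul, add_zero]
    · refine ⟨ktv F f x hf w1, ⟨⟨w1, h1, rfl⟩, ?_⟩, ?_⟩
      · change ktv F f x hf w1 ∈ P'
        rw [ktv_apply]
        exact P'.add_mem h1 h1''
      · rintro ⟨h3, -⟩
        apply h1'
        change ktv F f x hf w1 ∈ kpt F K x at h3
        rw [ktv_apply] at h3
        simpa using (kpt F K x).sub_mem h3 (smul_mem_kpt (f w1) x)

theorem step2 [FiniteDimensional F K] [FiniteDimensional K V] (hr : (finrank F K).Prime)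
    (x : V) (P' : Submodule F V) (hD : kpt F K x ⊓ P' ≠ ⊥) (hP : ¬ kpt F K x ≤ P')
    (h2 : finrank F ↥(kpt F K x ⊓ P') + 2 ≤ finrank F ↥P')
    (f0 : V →ₗ[K] K) (hf0x : f0 x = 0) (w : V) (hwP : w ∈ P') (hf0w : f0 w = 1) :
    ∃ (l : K) (hl : (l • f0) x = 0),
      P'.map (ktv F (l • f0) x hl).toLinearMap ≠ P' ∧
      kpt F K x ⊓ P' < P'.map (ktv F (l • f0) x hl).toLinearMap ⊓ P' := by
  haveI : FiniteDimensional F V := Module.Finite.trans K V
  set D := kpt F K x ⊓ P' with hDdef
  let lin : K →ₗ[F] V := (LinearMap.toSpanSingleton K V x).restrictScalars F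
  have hlin : ∀ l : K, lin l = l • x := fun l => rfl
  set D0 : Submodule F K := P'.comap lin with hD0
  have hmem : ∀ l : K, l ∈ D0 ↔ l • x ∈ P' := fun l => Iff.rfl
  have hD0bot : D0 ≠ ⊥ := by
    obtain ⟨d, hd, hd0⟩ := (Submodule.ne_bot_iff _).1 hD
    obtain ⟨a, rfl⟩ := mem_kpt.1 hd.1
    intro hb
    have : a ∈ D0 := (hmem a).2 hd.2
    rw [hb, Submodule.mem_bot] at this
    exact hd0 (by rw [this, zero_smul])
  have hD0top : D0 ≠ ⊤ := by
    intro ht
    apply hP
    intro p hp
    obtain ⟨a, rfl⟩ := mem_kpt.1 hp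
    exact (hmem a).1 (by rw [ht]; trivial)
  have hwx : w ∉ kpt F K x := by
    intro h
    obtain ⟨a, rfl⟩ := mem_kpt.1 h
    rw [map_smul, hf0x, smul_zero] at hf0w
    exact zero_ne_one hf0w
  obtain ⟨w', hw'P, hw'D⟩ : ∃ w' ∈ P', w' ∉ D ⊔ Submodule.span F {w} := by
    by_contra hcon
    push Not at hcon
    have h3 : P' ≤ D ⊔ Submodule.span F {w} := hcon
    have h4 := Submodule.finrank_mono h3
    have h5 := Submodule.finrank_add_le_finrank_add_finrank D (Submodule.span F {w})
    have h6 : finrank F ↥(Submodule.span F {w}) ≤ 1 := by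
      have := finrank_span_le_card (R := F) ({w} : Set V)
      simpa using this
    omega
  by_cases hmu : ∃ c : F, algebraMap F K c = f0 w'
  · obtain ⟨c, hc⟩ := hmu
    obtain ⟨l, hl⟩ : ∃ l : K, l ∉ D0 := by
      by_contra hcon
      push Not at hcon
      exact hD0top (eq_top_iff.2 fun l _ => hcon l)
    refine ⟨l, by simp [hf0x], ?_⟩
    apply step2_core x P' (l • f0) _ (w' - c • w) w (P'.sub_mem hw'P (P'.smul_mem c hwP))
    · intro h3
      apply hw'D
      have h4 : w' - c • w ∈ D := ⟨h3, P'.sub_mem hw'P (P'.smul_mem c hwP)⟩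
      have h5 : w' = (w' - c • w) + c • w := by abel
      rw [h5]
      exact Submodule.add_mem _ (Submodule.mem_sup_left h4)
        (Submodule.mem_sup_right (Submodule.smul_mem _ c (Submodule.mem_span_singleton_self w)))
    · have : f0 (w' - c • w) = 0 := by
        rw [map_sub, ← hc, ← algebraMap_smul K c w, map_smul, hf0w, smul_eq_mul, mul_one, sub_self]
      simp [this]
    · exact hwP
    · simpa [hf0w] using fun h => hl ((hmem l).2 h)
  · obtain ⟨d, hd, hd'⟩ : ∃ d ∈ D0, f0 w' * d ∉ D0 := by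
      by_contra hcon
      push Not at hcon
      exact hmu (stab_eq_bot hr D0 hD0bot hD0top (f0 w') hcon)
    refine ⟨d, by simp [hf0x], ?_⟩
    apply step2_core x P' (d • f0) _ w w' hwP hwx
    · simpa [hf0w] using (hmem d).1 hd
    · exact hw'P
    · intro h3
      apply hd'
      rw [hmem, mul_comm]
      simpa using h3

end Cfsg.Agent.Lib.Helper97.C3S
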